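import Cfsg.Agent.S5959

/-!
# Jordan normal form for nilpotent endomorphisms (helper29)

* `block`: a nilpotent `N` with `N^m = 0`, `N^(m-1) ≠ 0` has a cyclic block of size `m`
  with an `N`-invariant complement;
* `nilp_conj`: two nilpotent endomorphisms with the same rank sequence are conjugate;
* `exists_mu`: the rank sequence of a nilpotent endomorphism is `k ↦ Σ_{b ∈ μ} (b - k)` for a
  multiset `μ` of positive integers;
* `classOf`: the unipotent class of `GL_n(F)` attached to a partition of `n`.
-/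

set_option autoImplicit false

namespace Cfsg.Agent.Helper29

open Cfsg.Agent.S5959

universe u

section Block

variable {F : Type*} [Field F] {V : Type*} [AddCommGroup V] [Module F V]

/-- the nilpotent shift on `Fin m → F` -/
def sh (F : Type*) [Field F] (m : ℕ) : Module.End F (Fin m → F) where
  toFun a := fun i => if h : i.val + 1 < m then a ⟨i.val + 1, h⟩ else 0
  map_add' a b := by
    funext i
    by_cases h : i.val + 1 < m <;> simp [h]
  map_smul' c a := by
    funext i
    by_cases h : i.val + 1 < m <;> simp [h]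

theorem sh_apply (m : ℕ) (a : Fin m → F) (i : Fin m) :
    sh F m a i = if h : i.val + 1 < m then a ⟨i.val + 1, h⟩ else 0 := rfl

/-- the chain vectors `N^(m-1-i) v` -/
def chainVec (N : Module.End F V) (v : V) (m : ℕ) (i : Fin m) : V := (N ^ (m - 1 - i.val)) v

/-- the chain map `a ↦ Σ a_i N^(m-1-i) v` -/
noncomputable def chainMap (N : Module.End F V) (v : V) (m : ℕ) : (Fin m → F) →ₗ[F] V :=
  Fintype.linearCombination F (chainVec N v m)

theorem chainMap_apply (N : Module.End F V) (v : V) (m : ℕ) (a : Fin m → F) :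
    chainMap N v m a = ∑ i, a i • (N ^ (m - 1 - i.val)) v := by
  simp [chainMap, Fintype.linearCombination_apply, chainVec]

theorem chain_semiconj (N : Module.End F V) (v : V) (m : ℕ) (h0 : N ^ m = 0) (a : Fin m → F) :
    N (chainMap N v m a) = chainMap N v m (sh F m a) := by
  classical
  have key : N ∘ₗ chainMap N v m = chainMap N v m ∘ₗ sh F m := by
    apply LinearMap.pi_ext
    intro i x
    simp only [LinearMap.comp_apply]
    rw [chainMap, Fintype.linearCombination_apply_single, map_smul]
    by_cases hi : i.val = 0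
    · have h1 : N (chainVec N v m i) = 0 := by
        unfold chainVec
        rw [← Module.End.mul_apply, ← pow_succ']
        have h2 : m - 1 - i.val + 1 = m := by
          have := i.isLt
          omega
        rw [h2, h0, LinearMap.zero_apply]
      have h2 : sh F m (Pi.single i x) = 0 := by
        funext j
        rw [sh_apply]
        by_cases h : j.val + 1 < m
        · rw [dif_pos h, Pi.single_apply, if_neg]
          · rfl
          · intro heq
            have h3 : j.val + 1 = i.val := congrArg Fin.val heq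
            omega
        · rw [dif_neg h]
          rfl
      rw [h1, h2, smul_zero, map_zero]
    · have hi' : i.val - 1 < m := by
        have := i.isLt
        omega
      have h1 : N (chainVec N v m i) = chainVec N v m ⟨i.val - 1, hi'⟩ := by
        unfold chainVec
        rw [← Module.End.mul_apply, ← pow_succ']
        have h2 : m - 1 - i.val + 1 = m - 1 - (i.val - 1) := by
          have := i.isLt
          omega
        rw [h2]
      have h2 : sh F m (Pi.single i x) = Pi.single ⟨i.val - 1, hi'⟩ x := by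
        funext j
        rw [sh_apply]
        by_cases h : j.val + 1 < m
        · rw [dif_pos h, Pi.single_apply, Pi.single_apply]
          by_cases hj : j = ⟨i.val - 1, hi'⟩
          · rw [if_pos hj, if_pos]
            apply Fin.ext
            have h3 : j.val = i.val - 1 := congrArg Fin.val hj
            show j.val + 1 = i.val
            omega
          · rw [if_neg hj, if_neg]
            intro heq
            apply hj
            apply Fin.ext
            have h3 : j.val + 1 = i.val := congrArg Fin.val heq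
            show j.val = i.val - 1
            omega
        · rw [dif_neg h, Pi.single_apply, if_neg]
          intro heq
          have h3 : j.val = i.val - 1 := congrArg Fin.val heq
          have := i.isLt
          omega
      rw [h1, h2, Fintype.linearCombination_apply_single]
  exact LinearMap.congr_fun key a

theorem block [FiniteDimensional F V] (N : Module.End F V) (m : ℕ) (h0 : N ^ m = 0)
    (h1 : N ^ (m - 1) ≠ 0) :
    ∃ (A : (Fin m → F) →ₗ[F] V) (C : Submodule F V), Function.Injective A ∧
      (∀ a, N (A a) = A (sh F m a)) ∧ (∀ x ∈ C, N x ∈ C) ∧ IsCompl (LinearMap.range A) C := by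
  obtain ⟨v, hv⟩ : ∃ v, (N ^ (m - 1)) v ≠ 0 := by
    by_contra hcon
    push Not at hcon
    exact h1 (LinearMap.ext hcon)
  obtain ⟨φ, hφ⟩ : ∃ φ : Module.Dual F V, φ ((N ^ (m - 1)) v) ≠ 0 := by
    by_contra hcon
    push Not at hcon
    exact hv ((Module.forall_dual_apply_eq_zero_iff F _).mp hcon)
  let T : V →ₗ[F] (Fin m → F) := LinearMap.pi (fun j : Fin m => φ ∘ₗ (N ^ j.val))
  have hT : ∀ x j, T x j = φ ((N ^ j.val) x) := fun x j => rfl
  have hpow0 : ∀ k, m ≤ k → N ^ k = 0 := by
    intro k hk
    obtain ⟨r, rfl⟩ := Nat.exists_eq_add_of_le hk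
    rw [pow_add, h0, zero_mul]
  have hTA : ∀ a, T (chainMap N v m a) = 0 → a = 0 := by
    intro a ha
    have hcoord : ∀ j : Fin m, T (chainMap N v m a) j
        = ∑ i : Fin m, a i * φ ((N ^ (j.val + (m - 1 - i.val))) v) := by
      intro j
      rw [hT, chainMap_apply, map_sum, map_sum]
      apply Finset.sum_congr rfl
      intro i _
      rw [map_smul, map_smul, smul_eq_mul, ← Module.End.mul_apply, ← pow_add]
    have key : ∀ r : ℕ, ∀ j : Fin m, m - 1 - j.val = r → a j = 0 := by
      intro r
      induction r using Nat.strong_induction_on with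
      | _ r ih =>
        intro j hj
        have h2 := congrFun ha j
        rw [hcoord, Finset.sum_eq_single j] at h2
        · have h3 : j.val + (m - 1 - j.val) = m - 1 := by
            have := j.isLt
            omega
          rw [h3] at h2
          rcases mul_eq_zero.mp h2 with h4 | h4
          · exact h4
          · exact absurd h4 hφ
        · intro i _ hij
          rcases lt_or_gt_of_ne (fun h => hij (Fin.ext h)) with hlt | hgt
          · rw [hpow0 _ (by have := j.isLt; have := i.isLt; omega), LinearMap.zero_apply,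
              map_zero, mul_zero]
          · rw [ih (m - 1 - i.val) (by have := i.isLt; omega) i rfl, zero_mul]
        · intro h
          exact absurd (Finset.mem_univ j) h
    funext j
    exact key _ j rfl
  have hAinj : Function.Injective (chainMap N v m) := by
    rw [← LinearMap.ker_eq_bot, LinearMap.ker_eq_bot']
    intro a ha
    exact hTA a (by rw [ha, map_zero])
  have hTAinj : Function.Injective (T ∘ₗ chainMap N v m) := by
    rw [← LinearMap.ker_eq_bot, LinearMap.ker_eq_bot']
    intro a ha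
    exact hTA a ha
  have hTAsurj : Function.Surjective (T ∘ₗ chainMap N v m) :=
    LinearMap.injective_iff_surjective.mp hTAinj
  refine ⟨chainMap N v m, LinearMap.ker T, hAinj, chain_semiconj N v m h0, ?_, ?_⟩
  · intro x hx
    rw [LinearMap.mem_ker] at hx ⊢
    funext j
    rw [hT, ← Module.End.mul_apply, ← pow_succ]
    by_cases hj : j.val + 1 < m
    · have h2 := congrFun hx ⟨j.val + 1, hj⟩
      rw [hT] at h2
      exact h2
    · rw [hpow0 _ (by omega), LinearMap.zero_apply, map_zero]
      rfl
  · constructor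
    · rw [Submodule.disjoint_def]
      rintro x ⟨a, rfl⟩ hx
      rw [hTA a (LinearMap.mem_ker.mp hx), map_zero]
    · rw [codisjoint_iff, eq_top_iff]
      intro x _
      obtain ⟨a, ha⟩ := hTAsurj (T x)
      have h2 : x = chainMap N v m a + (x - chainMap N v m a) := by abel
      rw [h2]
      refine Submodule.add_mem _ (Submodule.mem_sup_left ⟨a, rfl⟩) (Submodule.mem_sup_right ?_)
      rw [LinearMap.mem_ker, map_sub]
      have h3 : T (chainMap N v m a) = T x := ha
      rw [h3, sub_self]

theorem pow_semiconj {V' : Type*} [AddCommGroup V'] [Module F V'] (N : Module.End F V)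
    (N' : Module.End F V') (f : V →ₗ[F] V') (h : ∀ x, f (N x) = N' (f x)) (k : ℕ) (x : V) :
    f ((N ^ k) x) = (N' ^ k) (f x) := by
  induction k generalizing x with
  | zero => simp
  | succ k ih => rw [pow_succ, Module.End.mul_apply, ih, h, pow_succ, Module.End.mul_apply]

theorem rank_semiconj {V' : Type*} [AddCommGroup V'] [Module F V'] (N : Module.End F V)
    (N' : Module.End F V') (e : V ≃ₗ[F] V') (h : ∀ x, e (N x) = N' (e x)) (k : ℕ) :
    Module.finrank F (LinearMap.range (N ^ k)) = Module.finrank F (LinearMap.range (N' ^ k)) := by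
  have h1 : LinearMap.range (N' ^ k) = (LinearMap.range (N ^ k)).map (e : V →ₗ[F] V') := by
    ext y
    constructor
    · rintro ⟨x, rfl⟩
      refine ⟨(N ^ k) (e.symm x), ⟨_, rfl⟩, ?_⟩
      have h2 := pow_semiconj N N' (e : V →ₗ[F] V') h k (e.symm x)
      simp only [LinearEquiv.coe_coe, LinearEquiv.apply_symm_apply] at h2
      exact h2
    · rintro ⟨_, ⟨x, rfl⟩, rfl⟩
      exact ⟨e x, (pow_semiconj N N' (e : V →ₗ[F] V') h k x).symm⟩
  rw [h1, LinearEquiv.finrank_map_eq]

theorem fr_block (N : Module.End F V) (m : ℕ) (A : (Fin m → F) →ₗ[F] V)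
    (hA : Function.Injective A) (hs : ∀ a, N (A a) = A (sh F m a)) (k : ℕ) :
    fr N (LinearMap.range A) k = Module.finrank F (LinearMap.range (sh F m ^ k)) := by
  unfold fr
  have h1 : (LinearMap.range A).map (N ^ k) = (LinearMap.range (sh F m ^ k)).map A := by
    ext y
    constructor
    · rintro ⟨_, ⟨a, rfl⟩, rfl⟩
      exact ⟨(sh F m ^ k) a, ⟨a, rfl⟩, pow_semiconj (sh F m) N A (fun x => (hs x).symm) k a⟩
    · rintro ⟨_, ⟨a, rfl⟩, rfl⟩
      exact ⟨A a, ⟨a, rfl⟩, (pow_semiconj (sh F m) N A (fun x => (hs x).symm) k a).symm⟩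
  rw [h1]
  exact LinearEquiv.finrank_eq (Submodule.equivMapOfInjective A hA _).symm

theorem restrict_rank (N : Module.End F V) (C : Submodule F V) (hC : ∀ x ∈ C, N x ∈ C) (k : ℕ) :
    Module.finrank F (LinearMap.range ((N.restrict hC) ^ k)) = fr N C k := by
  unfold fr
  have h1 : (LinearMap.range ((N.restrict hC) ^ k)).map C.subtype = C.map (N ^ k) := by
    rw [Module.End.pow_restrict k hC]
    ext y
    constructor
    · rintro ⟨_, ⟨x, rfl⟩, rfl⟩
      exact ⟨x.1, x.2, rfl⟩
    · rintro ⟨x, hx, rfl⟩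
      exact ⟨_, ⟨⟨x, hx⟩, rfl⟩, rfl⟩
  rw [← h1, Submodule.finrank_map_subtype_eq]

end Block

section Conj

theorem nilp_conj {F : Type*} [Field F] (d : ℕ) :
    ∀ (V V' : Type u) [AddCommGroup V] [Module F V] [FiniteDimensional F V]
      [AddCommGroup V'] [Module F V'] [FiniteDimensional F V']
      (N : Module.End F V) (N' : Module.End F V'),
      Module.finrank F V = d → (∃ k, N ^ k = 0) →
      (∀ k, Module.finrank F (LinearMap.range (N ^ k))
        = Module.finrank F (LinearMap.range (N' ^ k))) →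
      ∃ e : V ≃ₗ[F] V', ∀ x, e (N x) = N' (e x) := by
  induction d using Nat.strong_induction_on with
  | _ d ih =>
    intro V V' _ _ _ _ _ _ N N' hd hnil hR
    have hdim : Module.finrank F V = Module.finrank F V' := by
      have h1 := hR 0
      rw [pow_zero, pow_zero, Module.End.one_eq_id, Module.End.one_eq_id, LinearMap.range_id,
        LinearMap.range_id, finrank_top, finrank_top] at h1
      exact h1
    rcases Nat.eq_zero_or_pos d with hd0 | hdpos
    · have h0 : Module.finrank F V' = 0 := by omega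
      have hV' : Subsingleton V' := Module.finrank_zero_iff.mp h0
      exact ⟨LinearEquiv.ofFinrankEq V V' hdim, fun x => Subsingleton.elim _ _⟩
    classical
    have hm0 : N ^ (Nat.find hnil) = 0 := Nat.find_spec hnil
    have hm1 : 1 ≤ Nat.find hnil := by
      by_contra hcon
      have h1 : Nat.find hnil = 0 := by omega
      rw [h1, pow_zero] at hm0
      have hsub : Subsingleton V := ⟨fun a b => by
        have h2 := LinearMap.congr_fun hm0 a
        have h3 := LinearMap.congr_fun hm0 b
        rw [Module.End.one_apply, LinearMap.zero_apply] at h2 h3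
        rw [h2, h3]⟩
      have h4 : Module.finrank F V = 0 := Module.finrank_zero_iff.mpr hsub
      omega
    have hm2 : N ^ (Nat.find hnil - 1) ≠ 0 := Nat.find_min hnil (by omega)
    have zero_iff : ∀ k, N ^ k = 0 ↔ N' ^ k = 0 := by
      intro k
      rw [← LinearMap.range_eq_bot, ← LinearMap.range_eq_bot (f := N' ^ k),
        ← Submodule.finrank_eq_zero, ← Submodule.finrank_eq_zero (S := LinearMap.range (N' ^ k)),
        hR k]
    have hm0' : N' ^ (Nat.find hnil) = 0 := (zero_iff _).mp hm0
    have hm2' : N' ^ (Nat.find hnil - 1) ≠ 0 := fun h => hm2 ((zero_iff _).mpr h)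
    obtain ⟨A, C, hA, hsA, hC, hAC⟩ := block N (Nat.find hnil) hm0 hm2
    obtain ⟨A', C', hA', hsA', hC', hAC'⟩ := block N' (Nat.find hnil) hm0' hm2'
    have hZ : (LinearMap.range A).map N ≤ LinearMap.range A := by
      rintro _ ⟨_, ⟨a, rfl⟩, rfl⟩
      exact ⟨sh F _ a, (hsA a).symm⟩
    have hZ' : (LinearMap.range A').map N' ≤ LinearMap.range A' := by
      rintro _ ⟨_, ⟨a, rfl⟩, rfl⟩
      exact ⟨sh F _ a, (hsA' a).symm⟩
    have hCm : C.map N ≤ C := by
      rintro _ ⟨x, hx, rfl⟩
      exact hC x hx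
    have hCm' : C'.map N' ≤ C' := by
      rintro _ ⟨x, hx, rfl⟩
      exact hC' x hx
    have hfrC : ∀ k, fr N C k = fr N' C' k := by
      intro k
      have h1 := fr_add N _ _ hAC hZ hCm k
      have h2 := fr_add N' _ _ hAC' hZ' hCm' k
      rw [fr_block N _ A hA hsA k] at h1
      rw [fr_block N' _ A' hA' hsA' k] at h2
      have h3 := hR k
      omega
    have hCdim : Module.finrank F C < d := by
      have h3 : Module.finrank F (LinearMap.range A) = Nat.find hnil := by
        rw [LinearMap.finrank_range_of_inj hA, Module.finrank_fintype_fun_eq_card,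
          Fintype.card_fin]
      have h4 := Submodule.finrank_add_eq_of_isCompl hAC
      omega
    obtain ⟨eC, heC⟩ := ih (Module.finrank F C) hCdim C C' (N.restrict hC) (N'.restrict hC') rfl
      ⟨Nat.find hnil, by
        rw [Module.End.pow_restrict _ hC]
        apply LinearMap.ext
        intro x
        apply Subtype.ext
        rw [LinearMap.coe_restrict_apply, hm0]
        rfl⟩
      (fun k => by rw [restrict_rank, restrict_rank, hfrC k])
    have heZ : ∀ a, ((LinearEquiv.ofInjective A hA).symm ≪≫ₗ (LinearEquiv.ofInjective A' hA'))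
        ⟨A a, ⟨a, rfl⟩⟩ = ⟨A' a, ⟨a, rfl⟩⟩ := by
      intro a
      have h1 : (LinearEquiv.ofInjective A hA).symm ⟨A a, ⟨a, rfl⟩⟩ = a := by
        rw [LinearEquiv.symm_apply_eq]
        rfl
      rw [LinearEquiv.trans_apply, h1]
      rfl
    have he : ∀ (a : Fin (Nat.find hnil) → F) (c : C),
        ((Submodule.prodEquivOfIsCompl _ _ hAC).symm ≪≫ₗ
          (((LinearEquiv.ofInjective A hA).symm ≪≫ₗ (LinearEquiv.ofInjective A' hA')).prodCongr eC)
          ≪≫ₗ (Submodule.prodEquivOfIsCompl _ _ hAC')) (A a + (c : V))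
        = A' a + ((eC c : C') : V') := by
      intro a c
      have h1 : (Submodule.prodEquivOfIsCompl _ _ hAC).symm (A a + (c : V))
          = ((⟨A a, ⟨a, rfl⟩⟩ : LinearMap.range A), c) := by
        rw [LinearEquiv.symm_apply_eq]
        rfl
      rw [LinearEquiv.trans_apply, LinearEquiv.trans_apply, h1, LinearEquiv.prodCongr_apply,
        Submodule.coe_prodEquivOfIsCompl', heZ]
    refine ⟨(Submodule.prodEquivOfIsCompl _ _ hAC).symm ≪≫ₗ
          (((LinearEquiv.ofInjective A hA).symm ≪≫ₗ (LinearEquiv.ofInjective A' hA')).prodCongr eC)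
          ≪≫ₗ (Submodule.prodEquivOfIsCompl _ _ hAC'), fun x => ?_⟩
    · have hx : x ∈ LinearMap.range A ⊔ C := by
        rw [hAC.sup_eq_top]
        exact Submodule.mem_top
      obtain ⟨_, ⟨a, rfl⟩, c, hc, rfl⟩ := Submodule.mem_sup.mp hx
      have h1 := he a ⟨c, hc⟩
      have h2 := he (sh F _ a) ⟨N c, hC c hc⟩
      rw [map_add, hsA a]
      have h3 : ((eC ⟨N c, hC c hc⟩ : C') : V') = N' ((eC ⟨c, hc⟩ : C') : V') := by
        have h4 := heC ⟨c, hc⟩
        have h5 := congrArg Subtype.val h4
        rw [LinearMap.coe_restrict_apply] at h5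
        exact h5
      rw [h2, h1, map_add, hsA' a, h3]

end Conj

section Arith

theorem S_add (k : ℕ) (μ ν : Multiset ℕ) : S k (μ + ν) = S k μ + S k ν := by
  simp [S]

theorem S_replicate (k c b : ℕ) : S k (Multiset.replicate c b) = c * (b - k) := by
  simp [S]

theorem S_finset_sum (k : ℕ) (s : Finset ℕ) (f : ℕ → Multiset ℕ) :
    S k (∑ i ∈ s, f i) = ∑ i ∈ s, S k (f i) := by
  classical
  induction s using Finset.induction_on with
  | empty => simp [S]
  | insert a s ha ih => rw [Finset.sum_insert ha, Finset.sum_insert ha, S_add, ih]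

theorem exists_mu_arith (R : ℕ → ℕ) (M : ℕ) (hconv : ∀ k, 2 * R (k + 1) ≤ R k + R (k + 2))
    (hz : ∀ k, M ≤ k → R k = 0) :
    ∃ μ : Multiset ℕ, (∀ b ∈ μ, 0 < b) ∧ ∀ j, S j μ = R j := by
  have hc : ∀ k, (R k + R (k + 2) - 2 * R (k + 1)) + 2 * R (k + 1) = R k + R (k + 2) :=
    fun k => by
      have := hconv k
      omega
  refine ⟨∑ k ∈ Finset.range M, Multiset.replicate (R k + R (k + 2) - 2 * R (k + 1)) (k + 1),
    ?_, ?_⟩
  · intro b hb
    rw [Multiset.mem_sum] at hb
    obtain ⟨k, -, hk⟩ := hb
    have h1 := (Multiset.mem_replicate.mp hk).2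
    omega
  · intro j
    rw [S_finset_sum]
    simp only [S_replicate]
    rcases le_or_gt M j with hj | hj
    · rw [hz j hj]
      apply Finset.sum_eq_zero
      intro k hk
      have h1 := Finset.mem_range.mp hk
      have h2 : k + 1 - j = 0 := by omega
      rw [h2, mul_zero]
    · obtain ⟨r, rfl⟩ := Nat.exists_eq_add_of_lt hj
      rw [show j + r + 1 = j + (r + 1) from rfl, Finset.sum_range_add]
      have h1 : ∑ k ∈ Finset.range j, (R k + R (k + 2) - 2 * R (k + 1)) * (k + 1 - j) = 0 := by
        apply Finset.sum_eq_zero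
        intro k hk
        have h1 := Finset.mem_range.mp hk
        have h2 : k + 1 - j = 0 := by omega
        rw [h2, mul_zero]
      rw [h1, zero_add]
      have h2 := tele (fun i => R (j + i))
        (fun i => R (j + i) + R (j + i + 2) - 2 * R (j + i + 1)) (fun i => hc (j + i)) (r + 1)
      rw [hz (j + (r + 1)) (by omega), hz (j + (r + 1 + 1)) (by omega)] at h2
      simp only [mul_zero, add_zero] at h2
      rw [← h2]
      apply Finset.sum_congr rfl
      intro i _
      have h3 : j + i + 1 - j = i + 1 := by omega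
      rw [h3]

theorem S_inj (μ ν : Multiset ℕ) (hμ : ∀ b ∈ μ, 0 < b) (hν : ∀ b ∈ ν, 0 < b)
    (h : ∀ k, S k μ = S k ν) : μ = ν := by
  ext a
  rcases Nat.eq_zero_or_pos a with ha | ha
  · rw [ha, Multiset.count_eq_zero_of_notMem (fun h0 => absurd (hμ 0 h0) (lt_irrefl 0)),
      Multiset.count_eq_zero_of_notMem (fun h0 => absurd (hν 0 h0) (lt_irrefl 0))]
  · obtain ⟨k, rfl⟩ : ∃ k, a = k + 1 := ⟨a - 1, by omega⟩
    have h1 := S_count μ k
    have h2 := S_count ν k
    have h3 := h k
    have h4 := h (k + 1)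
    have h5 := h (k + 2)
    omega

end Arith

section Mu

variable {F : Type*} [Field F] {V : Type*} [AddCommGroup V] [Module F V] [FiniteDimensional F V]

theorem exists_mu (N : Module.End F V) (hnil : ∃ k, N ^ k = 0) :
    ∃ μ : Multiset ℕ, (∀ b ∈ μ, 0 < b) ∧
      ∀ k, Module.finrank F (LinearMap.range (N ^ k)) = S k μ := by
  obtain ⟨M, hM⟩ := hnil
  have hfr : ∀ k, fr N ⊤ k = Module.finrank F (LinearMap.range (N ^ k)) := fun k => by
    unfold fr
    rw [Submodule.map_top]
  obtain ⟨μ, hpos, hμ⟩ := exists_mu_arith (fun k => Module.finrank F (LinearMap.range (N ^ k))) M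
    (fun k => by
      have h1 := fr_convex N ⊤ le_top k
      rw [hfr, hfr, hfr] at h1
      exact h1)
    (fun k hk => by
      obtain ⟨r, rfl⟩ := Nat.exists_eq_add_of_le hk
      show Module.finrank F (LinearMap.range (N ^ (M + r))) = 0
      rw [pow_add, hM, zero_mul, LinearMap.range_zero, finrank_bot])
  exact ⟨μ, hpos, fun k => (hμ k).symm⟩

end Mu

section GLn

open scoped Matrix

variable {F : Type*} [Field F] {n : ℕ}

/-- the endomorphism `g - 1` of `F^n` -/
noncomputable def Ng (g : Matrix.GeneralLinearGroup (Fin n) F) : Module.End F (Fin n → F) :=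
  Matrix.toLinAlgEquiv' (g : Matrix (Fin n) (Fin n) F) - 1

theorem Ng_apply (g : Matrix.GeneralLinearGroup (Fin n) F) (x : Fin n → F) :
    Ng g x = (g : Matrix (Fin n) (Fin n) F) *ᵥ x - x := by
  unfold Ng
  rw [LinearMap.sub_apply, Matrix.toLinAlgEquiv'_apply, Module.End.one_apply]

theorem isConj_of_semiconj (g g' : Matrix.GeneralLinearGroup (Fin n) F)
    (e : (Fin n → F) ≃ₗ[F] (Fin n → F)) (h : ∀ x, e (Ng g x) = Ng g' (e x)) : IsConj g g' := by
  rw [isConj_iff]
  refine ⟨Matrix.GeneralLinearGroup.toLin.symm (LinearMap.GeneralLinearGroup.ofLinearEquiv e), ?_⟩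
  rw [mul_inv_eq_iff_eq_mul]
  apply Matrix.GeneralLinearGroup.toLin.injective
  rw [map_mul, map_mul, MulEquiv.apply_symm_apply]
  apply Units.ext
  apply LinearMap.ext
  intro x
  show e ((g : Matrix (Fin n) (Fin n) F) *ᵥ x) = (g' : Matrix (Fin n) (Fin n) F) *ᵥ (e x)
  have h1 := h x
  rw [Ng_apply, Ng_apply, map_sub] at h1
  exact sub_left_inj.mp h1

theorem semiconj_of_isConj (g g' : Matrix.GeneralLinearGroup (Fin n) F) (h : IsConj g g') :
    ∃ e : (Fin n → F) ≃ₗ[F] (Fin n → F), ∀ x, e (Ng g x) = Ng g' (e x) := by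
  obtain ⟨c, hc⟩ := isConj_iff.mp h
  have hc' : c * g = g' * c := mul_inv_eq_iff_eq_mul.mp hc
  refine ⟨(Matrix.GeneralLinearGroup.toLin c).toLinearEquiv, fun x => ?_⟩
  have he : ∀ y, (Matrix.GeneralLinearGroup.toLin c).toLinearEquiv y
      = (c : Matrix (Fin n) (Fin n) F) *ᵥ y := fun y => rfl
  rw [he, he, Ng_apply, Ng_apply, Matrix.mulVec_sub, Matrix.mulVec_mulVec, Matrix.mulVec_mulVec]
  have h2 : (c : Matrix (Fin n) (Fin n) F) * (g : Matrix (Fin n) (Fin n) F)
      = (g' : Matrix (Fin n) (Fin n) F) * (c : Matrix (Fin n) (Fin n) F) := by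
    rw [← Units.val_mul, ← Units.val_mul, hc']
  rw [h2]

theorem Ng_pow_char (p : ℕ) [Fact p.Prime] [CharP F p]
    (g : Matrix.GeneralLinearGroup (Fin n) F) (j : ℕ) :
    (Ng g) ^ (p ^ j) = Ng (g ^ (p ^ j)) := by
  have hP : (Polynomial.X - 1 : Polynomial F) ^ (p ^ j) = Polynomial.X ^ (p ^ j) - 1 := by
    rw [sub_pow_char_pow, one_pow]
  have h := congrArg (Polynomial.aeval
    (Matrix.toLinAlgEquiv' (g : Matrix (Fin n) (Fin n) F) : Module.End F (Fin n → F))) hP
  simp only [map_pow, map_sub, Polynomial.aeval_X, map_one] at h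
  unfold Ng
  rw [h, Units.val_pow_eq_pow_val, map_pow]

theorem Ng_eq_zero_iff (g : Matrix.GeneralLinearGroup (Fin n) F) : Ng g = 0 ↔ g = 1 := by
  unfold Ng
  rw [sub_eq_zero]
  constructor
  · intro h
    apply Units.ext
    apply (Matrix.toLinAlgEquiv' (R := F) (n := Fin n)).injective
    rw [h, Units.val_one, map_one]
  · intro h
    rw [h, Units.val_one, map_one]

theorem ppow_iff_nilp (p : ℕ) [Fact p.Prime] [CharP F p]
    (g : Matrix.GeneralLinearGroup (Fin n) F) :
    (∃ k, orderOf g = p ^ k) ↔ ∃ k, (Ng g) ^ k = 0 := by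
  constructor
  · rintro ⟨k, hk⟩
    refine ⟨p ^ k, ?_⟩
    rw [Ng_pow_char, ← hk, pow_orderOf_eq_one, (Ng_eq_zero_iff 1).mpr rfl]
  · rintro ⟨k, hk⟩
    have h1 : (Ng g) ^ (p ^ k) = 0 := by
      obtain ⟨r, hr⟩ := Nat.exists_eq_add_of_le
        (Nat.lt_pow_self (Fact.out : p.Prime).one_lt (n := k)).le
      rw [hr, pow_add, hk, zero_mul]
    rw [Ng_pow_char, Ng_eq_zero_iff] at h1
    have h2 := orderOf_dvd_of_pow_eq_one h1
    obtain ⟨m, -, hm⟩ := (Nat.dvd_prime_pow (Fact.out : p.Prime)).mp h2
    exact ⟨m, hm⟩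

theorem order_p_iff (p : ℕ) [Fact p.Prime] [CharP F p]
    (g : Matrix.GeneralLinearGroup (Fin n) F) :
    orderOf g = p ↔ (Ng g) ^ p = 0 ∧ Ng g ≠ 0 := by
  have h1 := Ng_pow_char p g 1
  rw [pow_one] at h1
  rw [h1, Ng_eq_zero_iff, Ne, Ng_eq_zero_iff]
  constructor
  · intro h
    refine ⟨by rw [← h]; exact pow_orderOf_eq_one g, fun h1 => ?_⟩
    rw [h1, orderOf_one] at h
    exact (Fact.out : p.Prime).one_lt.ne h
  · rintro ⟨h2, h3⟩
    exact orderOf_eq_prime h2 h3

/-- the element `1 + N` of `GL_n(F)` for nilpotent `N` -/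
noncomputable def gOf (N : Module.End F (Fin n → F)) (h : IsNilpotent N) :
    Matrix.GeneralLinearGroup (Fin n) F :=
  Matrix.GeneralLinearGroup.toLin.symm h.isUnit_one_add.unit

theorem Ng_gOf (N : Module.End F (Fin n → F)) (h : IsNilpotent N) : Ng (gOf N h) = N := by
  unfold Ng gOf
  have h1 : (Matrix.toLinAlgEquiv'
      ((Matrix.GeneralLinearGroup.toLin.symm h.isUnit_one_add.unit :
        Matrix.GeneralLinearGroup (Fin n) F) : Matrix (Fin n) (Fin n) F) :
        Module.End F (Fin n → F))
      = ((Matrix.GeneralLinearGroup.toLin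
          (Matrix.GeneralLinearGroup.toLin.symm h.isUnit_one_add.unit) :
          LinearMap.GeneralLinearGroup F (Fin n → F)) : Module.End F (Fin n → F)) := rfl
  rw [h1, MulEquiv.apply_symm_apply, IsUnit.unit_spec, add_sub_cancel_left]

theorem nilp_of_rank (N : Module.End F (Fin n → F)) (μ : Multiset ℕ) (hμ : μ.sum = n)
    (hN : ∀ k, Module.finrank F (LinearMap.range (N ^ k)) = S k μ) : N ^ n = 0 := by
  have h0 : S n μ = 0 := by
    unfold S
    apply Multiset.sum_eq_zero
    intro x hx
    obtain ⟨b, hb, rfl⟩ := Multiset.mem_map.mp hx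
    have h1 := Multiset.le_sum_of_mem hb
    omega
  have h1 := hN n
  rw [h0] at h1
  exact LinearMap.range_eq_bot.mp (Submodule.finrank_eq_zero.mp h1)

/-- a chosen nilpotent operator of Jordan type `μ` -/
noncomputable def Nof (F : Type*) [Field F] {n : ℕ} (μ : Nat.Partition n) :
    Module.End F (Fin n → F) :=
  Classical.choose (exists_nilp F μ.parts n μ.parts_sum)

theorem Nof_rank (μ : Nat.Partition n) (k : ℕ) :
    Module.finrank F (LinearMap.range ((Nof F μ) ^ k)) = S k μ.parts :=
  Classical.choose_spec (exists_nilp F μ.parts n μ.parts_sum) k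

theorem Nof_nilp (μ : Nat.Partition n) : IsNilpotent (Nof F μ) :=
  ⟨n, nilp_of_rank _ μ.parts μ.parts_sum (Nof_rank μ)⟩

/-- the unipotent class of `GL_n(F)` of Jordan type `μ` -/
noncomputable def classOf (F : Type*) [Field F] {n : ℕ} (μ : Nat.Partition n) :
    ConjClasses (Matrix.GeneralLinearGroup (Fin n) F) :=
  ConjClasses.mk (gOf (Nof F μ) (Nof_nilp μ))

theorem rank_of_class (μ : Nat.Partition n) (g : Matrix.GeneralLinearGroup (Fin n) F)
    (h : ConjClasses.mk g = classOf F μ) (k : ℕ) :
    Module.finrank F (LinearMap.range ((Ng g) ^ k)) = S k μ.parts := by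
  obtain ⟨e, he⟩ := semiconj_of_isConj _ _ (ConjClasses.mk_eq_mk_iff_isConj.mp h)
  rw [rank_semiconj _ _ e he k, Ng_gOf, Nof_rank]

theorem classOf_injective : Function.Injective (classOf F (n := n)) := by
  intro μ ν h
  apply Nat.Partition.ext
  apply S_inj _ _ (fun b hb => μ.parts_pos hb) (fun b hb => ν.parts_pos hb)
  intro k
  have h1 := rank_of_class ν (gOf (Nof F μ) (Nof_nilp μ)) h k
  rw [Ng_gOf, Nof_rank] at h1
  exact h1

theorem exists_class (g : Matrix.GeneralLinearGroup (Fin n) F) (hg : ∃ k, (Ng g) ^ k = 0) :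
    ∃ μ : Nat.Partition n, ConjClasses.mk g = classOf F μ := by
  obtain ⟨μ₀, hpos, hμ₀⟩ := exists_mu (Ng g) hg
  have hsum : μ₀.sum = n := by
    have h1 := hμ₀ 0
    rw [pow_zero, Module.End.one_eq_id, LinearMap.range_id, finrank_top,
      Module.finrank_fintype_fun_eq_card, Fintype.card_fin, S_zero] at h1
    exact h1.symm
  refine ⟨⟨μ₀, fun {i} hi => hpos i hi, hsum⟩, ?_⟩
  rw [classOf, ConjClasses.mk_eq_mk_iff_isConj]
  obtain ⟨e, he⟩ := nilp_conj n (Fin n → F) (Fin n → F) (Ng g)
    (Nof F ⟨μ₀, fun {i} hi => hpos i hi, hsum⟩)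
    (by rw [Module.finrank_fintype_fun_eq_card, Fintype.card_fin]) hg
    (fun k => by rw [hμ₀ k, Nof_rank])
  apply isConj_of_semiconj _ _ e
  intro x
  rw [Ng_gOf]
  exact he x

end GLn

end Cfsg.Agent.Helper29
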