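import Mathlib
import Cfsg.Prelude.Def_LocalEven
import Cfsg.Agent.S0242

/-!
# Natural `SL₂(F)`-modules in standard position (helper29)

Shared machinery for statements about a subgroup `L` acting on `V` as `SL₂(F)` on its natural module:
the data can be normalised so that a given Sylow `p`-subgroup corresponds to the upper unitriangular
matrices.
-/

set_option autoImplicit false

namespace Cfsg.Agent.Helper29

open scoped Matrix

section basic

variable {F : Type*} [Field F]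

theorem sl2_det (A : Matrix.SpecialLinearGroup (Fin 2) F) :
    A.1 0 0 * A.1 1 1 - A.1 0 1 * A.1 1 0 = 1 := by
  have := A.2
  rwa [Matrix.det_fin_two] at this

theorem mv2_0 (A : Matrix (Fin 2) (Fin 2) F) (v : Fin 2 → F) :
    (A *ᵥ v) 0 = A 0 0 * v 0 + A 0 1 * v 1 := by
  rw [Matrix.mulVec, dotProduct, Fin.sum_univ_two]

theorem mv2_1 (A : Matrix (Fin 2) (Fin 2) F) (v : Fin 2 → F) :
    (A *ᵥ v) 1 = A 1 0 * v 0 + A 1 1 * v 1 := by
  rw [Matrix.mulVec, dotProduct, Fin.sum_univ_two]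

theorem vec2_ext {v w : Fin 2 → F} (h0 : v 0 = w 0) (h1 : v 1 = w 1) : v = w := by
  ext i
  fin_cases i
  · exact h0
  · exact h1

theorem sl2_inv_entries (A : Matrix.SpecialLinearGroup (Fin 2) F) :
    (A⁻¹).1 0 0 = A.1 1 1 ∧ (A⁻¹).1 0 1 = -A.1 0 1 ∧ (A⁻¹).1 1 0 = -A.1 1 0 ∧
      (A⁻¹).1 1 1 = A.1 0 0 := by
  rw [Matrix.SpecialLinearGroup.coe_inv, Matrix.adjugate_fin_two]
  simp

theorem sl2_mul_entries (A B : Matrix.SpecialLinearGroup (Fin 2) F) (i j : Fin 2) :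
    (A * B).1 i j = A.1 i 0 * B.1 0 j + A.1 i 1 * B.1 1 j := by
  rw [Matrix.SpecialLinearGroup.coe_mul, Matrix.mul_apply, Fin.sum_univ_two]

/-- the upper unitriangular subgroup of `SL₂(F)`. -/
def Ustd (F : Type*) [Field F] : Subgroup (Matrix.SpecialLinearGroup (Fin 2) F) where
  carrier := {A | A.1 1 0 = 0 ∧ A.1 0 0 = 1}
  one_mem' := by
    constructor
    · show (1 : Matrix.SpecialLinearGroup (Fin 2) F).1 1 0 = 0
      rw [Matrix.SpecialLinearGroup.coe_one]; simp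
    · show (1 : Matrix.SpecialLinearGroup (Fin 2) F).1 0 0 = 1
      rw [Matrix.SpecialLinearGroup.coe_one]; simp
  mul_mem' := by
    rintro A B ⟨ha1, ha2⟩ ⟨hb1, hb2⟩
    constructor
    · show (A * B).1 1 0 = 0
      rw [sl2_mul_entries, ha1, hb1]; ring
    · show (A * B).1 0 0 = 1
      rw [sl2_mul_entries, ha2, hb1, hb2]; ring
  inv_mem' := by
    rintro A ⟨ha1, ha2⟩
    have hd := sl2_det A
    obtain ⟨e00, -, e10, -⟩ := sl2_inv_entries A
    constructor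
    · show (A⁻¹).1 1 0 = 0
      rw [e10, ha1, neg_zero]
    · show (A⁻¹).1 0 0 = 1
      rw [e00]
      linear_combination hd - A.1 1 1 * ha2 + A.1 0 1 * ha1

theorem mem_Ustd {A : Matrix.SpecialLinearGroup (Fin 2) F} :
    A ∈ Ustd F ↔ A.1 1 0 = 0 ∧ A.1 0 0 = 1 := Iff.rfl

theorem Ustd_11 {A : Matrix.SpecialLinearGroup (Fin 2) F} (hA : A ∈ Ustd F) : A.1 1 1 = 1 := by
  have hd := sl2_det A
  linear_combination hd - A.1 1 1 * hA.2 + A.1 0 1 * hA.1

/-- the matrix `[[1, x], [0, 1]]`. -/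
def uMat (x : F) : Matrix.SpecialLinearGroup (Fin 2) F :=
  ⟨!![1, x; 0, 1], by rw [Matrix.det_fin_two_of]; ring⟩

theorem uMat_mem (x : F) : uMat x ∈ Ustd F := ⟨rfl, rfl⟩

theorem uMat_01 (x : F) : (uMat x).1 0 1 = x := rfl

theorem eq_uMat {A : Matrix.SpecialLinearGroup (Fin 2) F} (hA : A ∈ Ustd F) :
    A = uMat (A.1 0 1) := by
  apply Subtype.ext
  ext i j
  fin_cases i <;> fin_cases j
  · exact hA.2
  · rfl
  · exact hA.1
  · exact Ustd_11 hA

theorem uMat_zero : uMat (0 : F) = 1 := by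
  apply Subtype.ext
  ext i j
  fin_cases i <;> fin_cases j <;> simp [uMat]

/-- the matrix `diag(a, a⁻¹)`. -/
def hMat (a : F) (ha : a ≠ 0) : Matrix.SpecialLinearGroup (Fin 2) F :=
  ⟨!![a, 0; 0, a⁻¹], by rw [Matrix.det_fin_two_of]; simp [ha]⟩

theorem hMat_entries (a : F) (ha : a ≠ 0) :
    (hMat a ha).1 0 0 = a ∧ (hMat a ha).1 0 1 = 0 ∧ (hMat a ha).1 1 0 = 0 ∧
      (hMat a ha).1 1 1 = a⁻¹ := ⟨rfl, rfl, rfl, rfl⟩

theorem Ustd_mv {A : Matrix.SpecialLinearGroup (Fin 2) F} (hA : A ∈ Ustd F) (v : Fin 2 → F) :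
    A.1 *ᵥ v = ![v 0 + A.1 0 1 * v 1, v 1] := by
  apply vec2_ext
  · rw [mv2_0, hA.2]; simp
  · rw [mv2_1, hA.1, Ustd_11 hA]; simp

theorem card_Ustd [Fintype F] : Nat.card (Ustd F) = Fintype.card F := by
  rw [← Nat.card_eq_fintype_card]
  symm
  apply Nat.card_congr
  refine Equiv.ofBijective (fun x => (⟨uMat x, uMat_mem x⟩ : Ustd F)) ⟨?_, ?_⟩
  · intro x y h
    have h' : (uMat x).1 0 1 = (uMat y).1 0 1 :=
      congrArg (fun A : Ustd F => A.1.1 0 1) h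
    rwa [uMat_01, uMat_01] at h'
  · rintro ⟨A, hA⟩
    exact ⟨A.1 0 1, Subtype.ext (eq_uMat hA).symm⟩

theorem sl2_card [Fintype F] :
    Nat.card (Matrix.SpecialLinearGroup (Fin 2) F)
      = Fintype.card F * (Fintype.card F - 1) * (Fintype.card F + 1) := by
  obtain ⟨q, hq⟩ : ∃ q, Fintype.card F = q := ⟨_, rfl⟩
  rw [hq]
  have h3 := Cfsg.Agent.S0242.result hq 2 (by norm_num)
  rw [Fin.prod_univ_two] at h3
  simp only [Fin.val_zero, Fin.val_one, pow_zero, pow_one] at h3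
  have hq2 : 2 ≤ q := by rw [← hq]; exact Fintype.one_lt_card
  have e1 : q ^ 2 - q = q * (q - 1) := by rw [Nat.mul_sub_one, sq]
  have e2 : q ^ 2 - 1 = (q - 1) * (q + 1) := by
    obtain ⟨j, rfl⟩ : ∃ j, q = j + 1 := ⟨q - 1, by omega⟩
    simp only [Nat.add_sub_cancel]
    ring_nf
    omega
  apply Nat.eq_of_mul_eq_mul_left (show 0 < q - 1 by omega)
  rw [h3, e1, e2]
  ring

/-- multiplication by a matrix of `SL₂(F)` as an additive automorphism of `F²`. -/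
def mvEquiv (B : Matrix.SpecialLinearGroup (Fin 2) F) : (Fin 2 → F) ≃+ (Fin 2 → F) where
  toFun v := B.1 *ᵥ v
  invFun v := (B⁻¹).1 *ᵥ v
  left_inv v := by
    show (B⁻¹).1 *ᵥ (B.1 *ᵥ v) = v
    rw [Matrix.mulVec_mulVec, ← Matrix.SpecialLinearGroup.coe_mul, inv_mul_cancel,
      Matrix.SpecialLinearGroup.coe_one, Matrix.one_mulVec]
  right_inv v := by
    show B.1 *ᵥ ((B⁻¹).1 *ᵥ v) = v
    rw [Matrix.mulVec_mulVec, ← Matrix.SpecialLinearGroup.coe_mul, mul_inv_cancel,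
      Matrix.SpecialLinearGroup.coe_one, Matrix.one_mulVec]
  map_add' v w := Matrix.mulVec_add _ v w

theorem mvEquiv_apply (B : Matrix.SpecialLinearGroup (Fin 2) F) (v : Fin 2 → F) :
    mvEquiv B v = B.1 *ᵥ v := rfl

end basic

/-- the natural module data in standard position: the subgroup `T` corresponds to the upper
unitriangular matrices. -/
structure StdData {G : Type*} [Group G] (F : Type*) [Field F] (V L T : Subgroup G) where
  /-- the isomorphism onto `SL₂(F)`. -/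
  ρ : L →* Matrix.SpecialLinearGroup (Fin 2) F
  /-- the coordinates on `V`. -/
  ψ : Additive V ≃+ (Fin 2 → F)
  inj : Function.Injective ρ
  surj : Function.Surjective ρ
  act : ∀ (l : L) (v : V), ∃ w : V, (w : G) = (l : G) * (v : G) * (l : G)⁻¹ ∧
    ψ (Additive.ofMul w) = (ρ l).1 *ᵥ (ψ (Additive.ofMul v))
  mem : ∀ l : L, (l : G) ∈ T ↔ ρ l ∈ Ustd F
  sub : T ≤ L

theorem exists_stdData {G : Type*} [Group G] [Finite G] {p : ℕ} [Fact p.Prime] {F : Type*} [Field F]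
    [Fintype F] (n : ℕ) (hF : Fintype.card F = p ^ n) (V L : Subgroup G)
    (hnat : Cfsg.IsNaturalSL2Module F V L) (hf : L ⊓ Subgroup.centralizer (V : Set G) = ⊥)
    (S : Sylow p ↥L) (T : Subgroup G) (hT : T = ((S : Subgroup ↥L).map L.subtype)) :
    Nonempty (StdData F V L T) := by
  obtain ⟨-, ρ0, ψ0, hsurj, hker, hact⟩ := hnat
  have hinj : Function.Injective ρ0 := by
    rw [← MonoidHom.ker_eq_bot_iff, hker, eq_bot_iff]
    intro l hl
    rw [Subgroup.mem_subgroupOf] at hl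
    have : (l : G) ∈ L ⊓ Subgroup.centralizer (V : Set G) := ⟨l.2, hl⟩
    rw [hf, Subgroup.mem_bot] at this
    rw [Subgroup.mem_bot]
    exact Subtype.ext this
  have hn : 1 ≤ n := by
    by_contra h
    have h0 : n = 0 := by omega
    rw [h0, pow_zero] at hF
    have := Fintype.one_lt_card (α := F)
    omega
  have hp := (Fact.out : p.Prime)
  have hUp : IsPGroup p ↥(Ustd F) := IsPGroup.of_card (n := n) (by rw [card_Ustd, hF])
  have hU'p : IsPGroup p ↥((Ustd F).comap ρ0) := hUp.comap_of_injective ρ0 hinj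
  have hcardU' : Nat.card ↥((Ustd F).comap ρ0) = p ^ n := by
    rw [← Subgroup.card_map_of_injective hinj, Subgroup.map_comap_eq_self_of_surjective hsurj,
      card_Ustd, hF]
  have hcardL : Nat.card L = p ^ n * (p ^ n - 1) * (p ^ n + 1) := by
    rw [Nat.card_congr (Equiv.ofBijective ρ0 ⟨hinj, hsurj⟩), sl2_card, hF]
  have hidx : ¬ p ∣ ((Ustd F).comap ρ0).index := by
    have h1 := Subgroup.card_mul_index ((Ustd F).comap ρ0)
    rw [hcardU', hcardL, mul_assoc] at h1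
    have h2 : ((Ustd F).comap ρ0).index = (p ^ n - 1) * (p ^ n + 1) :=
      Nat.eq_of_mul_eq_mul_left (pow_pos hp.pos n) h1
    rw [h2]
    intro hdvd
    have hpn : p ∣ p ^ n := dvd_pow_self p (by omega)
    have hpos : 1 ≤ p ^ n := Nat.one_le_pow _ _ hp.pos
    rcases (Nat.Prime.dvd_mul hp).mp hdvd with h | h
    · have h3 : p ∣ p ^ n - (p ^ n - 1) := Nat.dvd_sub hpn h
      have e : p ^ n - (p ^ n - 1) = 1 := by omega
      rw [e] at h3
      exact hp.one_lt.ne' (Nat.dvd_one.mp h3)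
    · have h3 : p ∣ (p ^ n + 1) - p ^ n := Nat.dvd_sub h hpn
      have e : p ^ n + 1 - p ^ n = 1 := by omega
      rw [e] at h3
      exact hp.one_lt.ne' (Nat.dvd_one.mp h3)
  obtain ⟨l0, hl0⟩ := MulAction.exists_smul_eq L (hU'p.toSylow hidx) S
  have hS : ∀ x : L, x ∈ (S : Subgroup L) ↔ ρ0 (l0⁻¹ * x * l0) ∈ Ustd F := by
    intro x
    rw [← hl0, Sylow.coe_subgroup_smul, Subgroup.mem_pointwise_smul_iff_inv_smul_mem]
    simp [MulAut.smul_def, MulAut.conj_apply]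
  refine ⟨{
    ρ := MonoidHom.mk' (fun x => ρ0 (l0⁻¹ * x * l0)) (by
      intro a b
      rw [← map_mul]
      congr 1
      group)
    ψ := ψ0.trans (mvEquiv (ρ0 l0)⁻¹)
    inj := ?_
    surj := ?_
    act := ?_
    mem := ?_
    sub := ?_ }⟩
  · intro a b hab
    have h1 : l0⁻¹ * a * l0 = l0⁻¹ * b * l0 := hinj hab
    exact mul_left_cancel (mul_right_cancel h1)
  · intro A
    obtain ⟨x0, hx0⟩ := hsurj A
    refine ⟨l0 * x0 * l0⁻¹, ?_⟩
    show ρ0 (l0⁻¹ * (l0 * x0 * l0⁻¹) * l0) = A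
    rw [← hx0]
    congr 1
    group
  · intro l v
    obtain ⟨w, hw1, hw2⟩ := hact l v
    refine ⟨w, hw1, ?_⟩
    show ((ρ0 l0)⁻¹).1 *ᵥ (ψ0 (Additive.ofMul w))
      = (ρ0 (l0⁻¹ * l * l0)).1 *ᵥ (((ρ0 l0)⁻¹).1 *ᵥ (ψ0 (Additive.ofMul v)))
    have e : (ρ0 l0)⁻¹ * ρ0 l = ρ0 (l0⁻¹ * l * l0) * (ρ0 l0)⁻¹ := by
      rw [map_mul, map_mul, map_inv]; group
    rw [hw2, Matrix.mulVec_mulVec, Matrix.mulVec_mulVec, ← Matrix.SpecialLinearGroup.coe_mul,
      ← Matrix.SpecialLinearGroup.coe_mul, e]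
  · intro l
    show (l : G) ∈ T ↔ ρ0 (l0⁻¹ * l * l0) ∈ Ustd F
    rw [← hS l, hT]
    constructor
    · rintro ⟨s, hs, e⟩
      have : s = l := Subtype.ext e
      rwa [this] at hs
    · intro h
      exact ⟨l, h, rfl⟩
  · rw [hT]
    exact Subgroup.map_subtype_le _

namespace StdData

variable {G : Type*} [Group G] {F : Type*} [Field F] {V L T : Subgroup G} (D : StdData F V L T)

/-- coordinates of an element of `V`. -/
def co (v : V) : Fin 2 → F := D.ψ (Additive.ofMul v)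

theorem co_mul (v w : V) : D.co (v * w) = D.co v + D.co w := by
  show D.ψ (Additive.ofMul (v * w)) = _
  rw [ofMul_mul, map_add]; rfl

theorem co_inv (v : V) : D.co v⁻¹ = - D.co v := by
  show D.ψ (Additive.ofMul v⁻¹) = _
  rw [ofMul_inv, map_neg]; rfl

theorem co_one : D.co 1 = 0 := by
  show D.ψ (Additive.ofMul 1) = _
  rw [ofMul_one, map_zero]

theorem co_inj {v w : V} (h : D.co v = D.co w) : v = w :=
  Additive.ofMul.injective (D.ψ.injective h)

theorem co_surj (c : Fin 2 → F) : ∃ v : V, D.co v = c :=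
  ⟨Additive.toMul (D.ψ.symm c), by
    show D.ψ (Additive.ofMul (Additive.toMul (D.ψ.symm c))) = c
    rw [ofMul_toMul, AddEquiv.apply_symm_apply]⟩

theorem co_eq_zero {v : V} (h : D.co v = 0) : v = 1 :=
  D.co_inj (h.trans D.co_one.symm)

theorem conj_co (l : L) (v : V) : ∃ w : V, (w : G) = (l : G) * (v : G) * (l : G)⁻¹ ∧
    D.co w = (D.ρ l).1 *ᵥ D.co v := D.act l v

include D in
theorem comm_V (v w : V) : v * w = w * v := by
  apply D.co_inj
  rw [co_mul, co_mul, add_comm]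

/-- the off-diagonal entry attached to an element of `T`. -/
def xof {t : G} (ht : t ∈ T) : F := (D.ρ ⟨t, D.sub ht⟩).1 0 1

theorem conj_T {t : G} (ht : t ∈ T) (v : V) : ∃ w : V, (w : G) = t * (v : G) * t⁻¹ ∧
    D.co w = ![D.co v 0 + D.xof ht * D.co v 1, D.co v 1] := by
  obtain ⟨w, hw, hc⟩ := D.act ⟨t, D.sub ht⟩ v
  refine ⟨w, hw, ?_⟩
  have hU : D.ρ ⟨t, D.sub ht⟩ ∈ Ustd F := (D.mem ⟨t, D.sub ht⟩).mp ht
  show D.ψ (Additive.ofMul w) = _
  rw [hc, Ustd_mv hU]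
  rfl

theorem comm_T {t : G} (ht : t ∈ T) (v : V) : ∃ w : V, (w : G) = (v : G) * t * (v : G)⁻¹ * t⁻¹ ∧
    D.co w = ![-(D.xof ht * D.co v 1), 0] := by
  obtain ⟨w, hw, hc⟩ := D.conj_T ht v
  refine ⟨v * w⁻¹, ?_, ?_⟩
  · rw [Subgroup.coe_mul, Subgroup.coe_inv, hw]; group
  · rw [co_mul, co_inv, hc]
    apply vec2_ext
    · simp
    · simp

theorem exists_T (x : F) : ∃ (t : G) (ht : t ∈ T), D.xof ht = x := by
  obtain ⟨l, hl⟩ := D.surj (uMat x)
  have ht : (l : G) ∈ T := (D.mem l).mpr (by rw [hl]; exact uMat_mem x)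
  refine ⟨(l : G), ht, ?_⟩
  show (D.ρ ⟨(l : G), D.sub ht⟩).1 0 1 = x
  have : (⟨(l : G), D.sub ht⟩ : L) = l := Subtype.ext rfl
  rw [this, hl]
  rfl

theorem xof_ne_zero {t : G} (ht : t ∈ T) (h1 : t ≠ 1) : D.xof ht ≠ 0 := by
  intro h0
  apply h1
  have hU : D.ρ ⟨t, D.sub ht⟩ ∈ Ustd F := (D.mem ⟨t, D.sub ht⟩).mp ht
  have h2 : D.ρ ⟨t, D.sub ht⟩ = 1 := by
    rw [eq_uMat hU]
    have : (D.ρ ⟨t, D.sub ht⟩).1 0 1 = 0 := h0
    rw [this, uMat_zero]
  have h3 : (⟨t, D.sub ht⟩ : L) = 1 := D.inj (h2.trans (map_one _).symm)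
  exact congrArg (fun z : L => (z : G)) h3

theorem mem_CT (v : V) : (v : G) ∈ Subgroup.centralizer (T : Set G) ↔ D.co v 1 = 0 := by
  constructor
  · intro h
    obtain ⟨t, ht, hx⟩ := D.exists_T 1
    obtain ⟨w, hw, hc⟩ := D.conj_T ht v
    have h1 : t * (v : G) = (v : G) * t := Subgroup.mem_centralizer_iff.mp h t ht
    have h2 : w = v := by
      apply Subtype.ext
      rw [hw, h1, mul_inv_cancel_right]
    rw [h2, hx] at hc
    have h3 := congrFun hc 0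
    simp at h3
    exact h3
  · intro h
    rw [Subgroup.mem_centralizer_iff]
    intro t ht
    obtain ⟨w, hw, hc⟩ := D.conj_T ht v
    have h2 : w = v := by
      apply D.co_inj
      rw [hc]
      apply vec2_ext
      · simp [h]
      · simp
    rw [h2] at hw
    calc t * (v : G) = t * (v : G) * t⁻¹ * t := by group
      _ = (v : G) * t := by rw [← hw]

theorem conj_mem_T (l : L) (h : (D.ρ l).1 1 0 = 0) {t : G} (ht : t ∈ T) :
    (l : G) * t * (l : G)⁻¹ ∈ T := by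
  have hU : D.ρ ⟨t, D.sub ht⟩ ∈ Ustd F := (D.mem ⟨t, D.sub ht⟩).mp ht
  have key : D.ρ (l * ⟨t, D.sub ht⟩ * l⁻¹) ∈ Ustd F := by
    rw [map_mul, map_mul, map_inv]
    obtain ⟨e00, e01, e10, e11⟩ := sl2_inv_entries (D.ρ l)
    have hd := sl2_det (D.ρ l)
    have u11 := Ustd_11 hU
    constructor
    · rw [sl2_mul_entries, sl2_mul_entries, sl2_mul_entries, e00, e10, h, hU.1, u11]
      ring
    · rw [sl2_mul_entries, sl2_mul_entries, sl2_mul_entries, e00, e10, h, hU.2, hU.1]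
      linear_combination hd + (D.ρ l).1 0 1 * h
  exact (D.mem (l * ⟨t, D.sub ht⟩ * l⁻¹)).mpr key

theorem tri_norm (l : L) (h : (D.ρ l).1 1 0 = 0) :
    (l : G) ∈ Subgroup.normalizer (T : Set G) := by
  rw [Subgroup.mem_normalizer_iff]
  intro k
  refine ⟨fun hk => D.conj_mem_T l h hk, fun hk => ?_⟩
  have h' : (D.ρ l⁻¹).1 1 0 = 0 := by
    rw [map_inv, (sl2_inv_entries (D.ρ l)).2.2.1, h, neg_zero]
  have := D.conj_mem_T l⁻¹ h' hk
  rw [Subgroup.coe_inv] at this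
  have e : (l : G)⁻¹ * ((l : G) * k * (l : G)⁻¹) * (l : G)⁻¹⁻¹ = k := by group
  rwa [e] at this

include D in
theorem card_V [Fintype F] : Nat.card V = Fintype.card F ^ 2 := by
  have h1 : Nat.card V = Nat.card (Fin 2 → F) :=
    Nat.card_congr (Additive.ofMul.trans D.ψ.toEquiv)
  rw [h1, Nat.card_eq_fintype_card, Fintype.card_fun, Fintype.card_fin]

include D in
theorem card_CVT [Fintype F] :
    Nat.card ↥(V ⊓ Subgroup.centralizer (T : Set G)) = Fintype.card F := by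
  rw [← Nat.card_eq_fintype_card]
  apply Nat.card_congr
  refine Equiv.ofBijective
    (fun g : ↥(V ⊓ Subgroup.centralizer (T : Set G)) => D.co ⟨g.1, g.2.1⟩ 0) ⟨?_, ?_⟩
  · intro g g' h
    have h1 : D.co ⟨g.1, g.2.1⟩ 1 = 0 := (D.mem_CT ⟨g.1, g.2.1⟩).mp g.2.2
    have h2 : D.co ⟨g'.1, g'.2.1⟩ 1 = 0 := (D.mem_CT ⟨g'.1, g'.2.1⟩).mp g'.2.2
    have h3 : (⟨g.1, g.2.1⟩ : V) = ⟨g'.1, g'.2.1⟩ :=
      D.co_inj (vec2_ext h (h1.trans h2.symm))
    have h4 : g.1 = g'.1 := congrArg (fun z : V => (z : G)) h3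
    exact Subtype.ext h4
  · intro c
    obtain ⟨v, hv⟩ := D.co_surj ![c, 0]
    have hm : (v : G) ∈ Subgroup.centralizer (T : Set G) :=
      (D.mem_CT v).mpr (by rw [hv]; rfl)
    refine ⟨⟨(v : G), v.2, hm⟩, ?_⟩
    show D.co ⟨(v : G), v.2⟩ 0 = c
    have : (⟨(v : G), v.2⟩ : V) = v := Subtype.ext rfl
    rw [this, hv]
    rfl

end StdData

end Cfsg.Agent.Helper29
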